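import Mathlib
import Cfsg.Agent.Spor.NM.F2

/-!
Semilinear maps over the field with four elements, as two-by-two block matrices over the field with two elements, and
their packed codes: a parity bit, then two packed matrices.
-/

set_option autoImplicit false

namespace Cfsg.Agent.Spor.MX.F4S

open Cfsg.Agent.Spor Cfsg.Agent.Spor.NM Cfsg.Agent.Spor.NM.F2 Matrix

section

variable {R : Type*} [Ring R]

/-- Multiplication by `a + b ω`. -/
def lin (a b : R) : Matrix (Fin 2) (Fin 2) R := !![a, b; b, a + b]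

/-- The Frobenius map. -/
def Fr (R : Type*) [Ring R] : Matrix (Fin 2) (Fin 2) R := !![1, 1; 0, 1]

variable (h2 : ∀ x : R, x + x = 0)

theorem lin_one : lin (1 : R) 0 = 1 := by rw [lin, add_zero, one_fin_two]

include h2

theorem lin_mul (a b c d : R) : lin a b * lin c d = lin (a * c + b * d) (a * c + (a + b) * (c + d)) := by
  rw [lin, lin, lin, mul_fin_two]
  have h3 : ∀ {x y : R} (z : R), x = y + (z + z) → x = y := fun z h => by rw [h, h2, add_zero]
  rw [h3 (a * c) (show a * c + (a + b) * (c + d) = a * d + b * (c + d) + _ by noncomm_ring),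
    show b * c + (a + b) * d = a * d + b * (c + d) by noncomm_ring,
    h3 (b * d) (show b * d + (a + b) * (c + d) = a * c + a * d + b * c + _ by noncomm_ring),
    h3 (b * d) (show a * c + b * d + (a * d + b * (c + d)) = a * c + a * d + b * c + _ by noncomm_ring)]

theorem Fr_lin (a b : R) : Fr R * lin a b = lin (a + b) b * Fr R := by
  rw [lin, lin, Fr, mul_fin_two, mul_fin_two]
  simp only [one_mul, mul_one, zero_mul, mul_zero, add_zero, zero_add, add_assoc, h2, add_comm b (a + b)]
  rw [add_comm a b]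

theorem Fr_sq : Fr R * Fr R = 1 := by
  rw [Fr, mul_fin_two, one_fin_two]
  simp only [mul_one, mul_zero, add_zero, zero_add, h2]

theorem w_comm (a b : R) : lin a b * lin 1 1 = lin 1 1 * lin a b := by
  rw [lin_mul h2, lin_mul h2]
  simp only [one_mul, mul_one, h2, zero_mul, mul_zero]

theorem w_sq : lin (1 : R) 1 * lin 1 1 = lin 0 1 := by
  rw [lin_mul h2]
  simp only [one_mul, h2, mul_zero, add_zero]

theorem w_cube : lin (1 : R) 1 * (lin 1 1 * lin 1 1) = 1 := by
  rw [w_sq h2, lin_mul h2]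
  simp only [one_mul, h2, mul_zero, zero_mul, zero_add, lin_one]

theorem semi_w (a b : R) : lin a b * Fr R * lin 1 1 = lin 1 1 * lin 1 1 * (lin a b * Fr R) := by
  rw [mul_assoc, Fr_lin h2, h2, ← w_sq h2, ← mul_assoc, ← mul_assoc, w_comm h2, mul_assoc _ (lin a b), w_comm h2]
  simp only [mul_assoc]

end

theorem w_ne {R : Type*} [Ring R] [Nontrivial R] : lin (1 : R) 1 ≠ 1 := fun h => by
  simpa [lin] using congrFun (congrFun h 0) 1

theorem add_self {n : ℕ} (x : Matrix (Fin n) (Fin n) (ZMod 2)) : x + x = 0 := by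
  ext i j
  exact CharTwo.add_self_eq_zero _

theorem mat_xor (n a b : ℕ) : mat n (a ^^^ b) = mat n a + mat n b := by
  ext i j
  simp only [mat, of_apply, fld_xor, vec_xor, Pi.add_apply, Matrix.add_apply]

theorem mat_zero (n : ℕ) : mat n 0 = 0 := by simpa [add_self] using mat_xor n 0 0

/-- The code with parts `a`, `b` and parity `e`. -/
noncomputable def pack (N a b e : ℕ) : ℕ := Nat.add e (Nat.mul 2 (Nat.add a (Nat.shiftLeft b N)))

/-- The map with code `c`. -/
def val (n c : ℕ) : Matrix (Fin 2) (Fin 2) (Matrix (Fin n) (Fin n) (ZMod 2)) :=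
  lin (mat n ((c >>> 1) &&& (2 ^ (n * n) - 1))) (mat n ((c >>> 1) >>> (n * n))) * Fr _ ^ (c &&& 1)

theorem val_pack {n a e : ℕ} (ha : a < 2 ^ (n * n)) (b : ℕ) (he : e < 2) :
    val n (pack (n * n) a b e) = lin (mat n a) (mat n b) * Fr _ ^ e := by
  have h0 : pack (n * n) a b e = e + 2 * (a + b * 2 ^ (n * n)) := by rw [← Nat.shiftLeft_eq]; rfl
  have h1 : pack (n * n) a b e >>> 1 = a + b * 2 ^ (n * n) := by rw [h0, Nat.shiftRight_eq_div_pow]; omega
  rw [val, h1, Nat.and_two_pow_sub_one_eq_mod, Nat.shiftRight_eq_div_pow, Nat.add_mul_mod_self_right,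
    Nat.mod_eq_of_lt ha, Nat.add_mul_div_right _ _ (by positivity), Nat.div_eq_of_lt ha, zero_add, Nat.and_one_is_mod, h0,
    show (e + 2 * (a + b * 2 ^ (n * n))) % 2 = e by omega]

/-- The product of codes. -/
noncomputable def mul (n m s N M a b : ℕ) : ℕ := force a fun a => force b fun b =>
  force (Nat.land (Nat.shiftRight a 1) M) fun a0 => force (Nat.shiftRight (Nat.shiftRight a 1) N) fun a1 =>
  force (Nat.shiftRight (Nat.shiftRight b 1) N) fun b1 =>
  force (Nat.xor (Nat.land (Nat.shiftRight b 1) M) (Nat.mul (Nat.land a 1) b1)) fun b0 =>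
  force (mm n m s a0 b0) fun p => pack N (Nat.xor p (mm n m s a1 b1))
    (Nat.xor p (mm n m s (Nat.xor a0 a1) (Nat.xor b0 b1))) (Nat.xor (Nat.land a 1) (Nat.land b 1))

theorem val_mul (n a b : ℕ) : val n (mul n (2 ^ n - 1) (pk n (fun _ => 1) n) (n * n) (2 ^ (n * n) - 1) a b) =
    val n a * val n b := by
  have h1 : ∀ c, c &&& 1 = 0 ∨ c &&& 1 = 1 := fun c => by rw [Nat.and_one_is_mod]; omega
  simp only [mul, force_eq, Nat.xor_eq, Nat.land_eq, Nat.shiftRight_eq, Nat.mul_eq]
  rw [val_pack (Nat.xor_lt_two_pow (mm_lt _ _ _) (mm_lt _ _ _)) _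
    (by rcases h1 a with h | h <;> rcases h1 b with h' | h' <;> rw [h, h'] <;> decide), val, val]
  simp only [mat_xor, mat_mm, ← lin_mul add_self]
  rcases h1 a with h | h <;> rw [h]
  · simp [mat_zero, mul_assoc]
  · rw [one_mul, pow_one, mul_assoc, mul_assoc, ← mul_assoc (Fr _), Fr_lin add_self, mul_assoc]
    rcases h1 b with h' | h' <;> rw [h'] <;> simp [Fr_sq add_self]

end Cfsg.Agent.Spor.MX.F4S
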