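import Mathlib
import Cfsg.Agent.Spor.MX.F4S
import Cfsg.Agent.Spor.MX.F24R0
import Cfsg.Agent.Spor.MX.F24R1

/-! The semilinear maps of degree 783 for the triple cover of Fi24: the tests -/

set_option autoImplicit false
set_option maxRecDepth 100000
set_option exponentiation.threshold 1000000

namespace Cfsg.Agent.Spor.MFi24.Mu

open Cfsg.Agent.Spor Cfsg.Agent.Spor.NM Cfsg.Agent.Spor.MX.F4S

/-- The twelve codes. -/
noncomputable def c : ℕ → ℕ := BT.get
  (.node (.node (.node (.node (.leaf c0) (.leaf c8)) (.leaf c4)) (.node (.node (.leaf c2) (.leaf c10)) (.leaf c6)))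
    (.node (.node (.node (.leaf c1) (.leaf c9)) (.leaf c5)) (.node (.node (.leaf c3) (.leaf c11)) (.leaf c7))))

/-- The product of codes. -/
noncomputable def mu (a b : ℕ) : ℕ := force (Nat.sub (Nat.pow 2 783) 1) fun m =>
  force (Nat.sub (Nat.pow 2 613089) 1) fun M => force (Nat.div M m) fun s => mul 783 m s 613089 M a b

/-- The identity matrix. -/
noncomputable def I : ℕ := Nat.div (Nat.sub (Nat.pow 2 613872) 1) (Nat.sub (Nat.pow 2 784) 1)

theorem s_eq : Nat.div (Nat.sub (Nat.pow 2 613089) 1) (Nat.sub (Nat.pow 2 783) 1) = pk 783 (fun _ => 1) 783 := by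
  decide +kernel

theorem I_eq : I = pk 783 (fun c => 2 ^ c) 783 := by decide +kernel

theorem val_mu (a b : ℕ) : val 783 (mu a b) = val 783 a * val 783 b := by
  rw [mu, force_eq, force_eq, force_eq, s_eq]
  exact val_mul 783 a b

/-- The edges of the diagram. -/
noncomputable def edge (x y : ℕ) : Bool :=
  Nat.beq (Nat.land (Nat.shiftRight (nat_lit 0x50080008081024008800410204102101100e) (Nat.add (Nat.mul 12 x) y)) 1) 1

/-- The Coxeter relation between two letters. -/
noncomputable def rel (x y : ℕ) : Bool :=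
  Bool.rec (Nat.beq (mu (c x) (c y)) (mu (c y) (c x)))
    (force (mu (c x) (c y)) fun p => Nat.beq (mu p (c x)) (mu (c y) p)) (edge x y)

/-- The code of a word times `a`. -/
noncomputable def ev (a : ℕ) (w : List ℕ) : ℕ := List.rec a (fun y _ ih => mu (c y) ih) w

/-- The eighth power. -/
noncomputable def p8 (a : ℕ) : ℕ := force a fun a => force (mu a a) fun b => force (mu b b) fun d => mu d d

end Cfsg.Agent.Spor.MFi24.Mu
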