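import Mathlib
import Cfsg.Agent.Spor.MX.F24RD
import Cfsg.Agent.Spor.MX.F24R2

/-! Generated by tools/mx/f24gen.py: squares and the long relations -/

set_option autoImplicit false
set_option Elab.async false
set_option maxRecDepth 100000
set_option exponentiation.threshold 1000000

namespace Cfsg.Agent.Spor.MFi24.Mu

open Cfsg.Agent.Spor Cfsg.Agent.Spor.MX.F4S

theorem sq0 : allRange 0 3 (fun x => Nat.beq (mu (c x) (c x)) (pack 613089 I 0 0)) = true := by decide +kernel

theorem sq1 : allRange 3 3 (fun x => Nat.beq (mu (c x) (c x)) (pack 613089 I 0 0)) = true := by decide +kernel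

theorem sq2 : allRange 6 3 (fun x => Nat.beq (mu (c x) (c x)) (pack 613089 I 0 0)) = true := by decide +kernel

theorem sq3 : allRange 9 3 (fun x => Nat.beq (mu (c x) (c x)) (pack 613089 I 0 0)) = true := by decide +kernel

theorem zc0 : Nat.beq (ev (c 5) [9, 0, 2]) z0 = true := by decide +kernel

theorem zc1 : Nat.beq (ev z0 [3, 6, 7]) z1 = true := by decide +kernel

theorem zc2 : Nat.beq (ev z1 [11, 10, 0]) z2 = true := by decide +kernel

theorem zc3 : Nat.beq (ev z2 [1, 4, 8]) z3 = true := by decide +kernel

theorem zc4 : Nat.beq (ev z3 [0]) z4 = true := by decide +kernel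

theorem zc8 : Nat.beq (p8 z4) z8 = true := by decide +kernel

theorem yc0 : Nat.beq (ev (c 8) [0, 1, 4]) y0 = true := by decide +kernel

theorem yc1 : Nat.beq (ev y0 [2, 6, 3]) y1 = true := by decide +kernel

theorem yc8 : Nat.beq (p8 y1) y8 = true := by decide +kernel

theorem zc9 : Nat.beq (mu z4 (mu z8 z8)) (pack 613089 I I 0) = true := by decide +kernel

theorem yc9 : Nat.beq (mu (c 10) (mu y1 y8)) (pack 613089 I 0 0) = true := by decide +kernel

end Cfsg.Agent.Spor.MFi24.Mu
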