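import Mathlib
import Cfsg.Agent.Spor.MX.F24RD

/-! Generated by tools/mx/f24gen.py: the Coxeter relations -/

set_option autoImplicit false
set_option Elab.async false
set_option maxRecDepth 100000
set_option exponentiation.threshold 1000000

namespace Cfsg.Agent.Spor.MFi24.Mu

open Cfsg.Agent.Spor

theorem rel_0_1 : rel 0 1 = true := by decide +kernel

theorem rel_0_2 : rel 0 2 = true := by decide +kernel

theorem rel_1_2 : rel 1 2 = true := by decide +kernel

theorem rel_0_3 : rel 0 3 = true := by decide +kernel

theorem rel_1_3 : rel 1 3 = true := by decide +kernel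

theorem rel_2_3 : rel 2 3 = true := by decide +kernel

theorem rel_0_4 : rel 0 4 = true := by decide +kernel

theorem rel_1_4 : rel 1 4 = true := by decide +kernel

theorem rel_2_4 : rel 2 4 = true := by decide +kernel

theorem rel_3_4 : rel 3 4 = true := by decide +kernel

theorem rel_0_5 : rel 0 5 = true := by decide +kernel

theorem rel_1_5 : rel 1 5 = true := by decide +kernel

theorem rel_2_5 : rel 2 5 = true := by decide +kernel

theorem rel_3_5 : rel 3 5 = true := by decide +kernel

theorem rel_4_5 : rel 4 5 = true := by decide +kernel

theorem rel_0_6 : rel 0 6 = true := by decide +kernel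

theorem rel_1_6 : rel 1 6 = true := by decide +kernel

theorem rel_2_6 : rel 2 6 = true := by decide +kernel

theorem rel_3_6 : rel 3 6 = true := by decide +kernel

theorem rel_4_6 : rel 4 6 = true := by decide +kernel

theorem rel_5_6 : rel 5 6 = true := by decide +kernel

theorem rel_0_7 : rel 0 7 = true := by decide +kernel

theorem rel_1_7 : rel 1 7 = true := by decide +kernel

theorem rel_2_7 : rel 2 7 = true := by decide +kernel

theorem rel_3_7 : rel 3 7 = true := by decide +kernel

theorem rel_4_7 : rel 4 7 = true := by decide +kernel

theorem rel_5_7 : rel 5 7 = true := by decide +kernel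

theorem rel_6_7 : rel 6 7 = true := by decide +kernel

theorem rel_0_8 : rel 0 8 = true := by decide +kernel

theorem rel_1_8 : rel 1 8 = true := by decide +kernel

theorem rel_2_8 : rel 2 8 = true := by decide +kernel

theorem rel_3_8 : rel 3 8 = true := by decide +kernel

theorem rel_4_8 : rel 4 8 = true := by decide +kernel

end Cfsg.Agent.Spor.MFi24.Mu
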