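import Mathlib
import Cfsg.Agent.Spor.MX.F24RD

/-! Generated by tools/mx/f24gen.py: the Coxeter relations -/

set_option autoImplicit false
set_option Elab.async false
set_option maxRecDepth 100000
set_option exponentiation.threshold 1000000

namespace Cfsg.Agent.Spor.MFi24.Mu

open Cfsg.Agent.Spor

theorem rel_5_8 : rel 5 8 = true := by decide +kernel

theorem rel_6_8 : rel 6 8 = true := by decide +kernel

theorem rel_7_8 : rel 7 8 = true := by decide +kernel

theorem rel_0_9 : rel 0 9 = true := by decide +kernel

theorem rel_1_9 : rel 1 9 = true := by decide +kernel

theorem rel_2_9 : rel 2 9 = true := by decide +kernel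

theorem rel_3_9 : rel 3 9 = true := by decide +kernel

theorem rel_4_9 : rel 4 9 = true := by decide +kernel

theorem rel_5_9 : rel 5 9 = true := by decide +kernel

theorem rel_6_9 : rel 6 9 = true := by decide +kernel

theorem rel_7_9 : rel 7 9 = true := by decide +kernel

theorem rel_8_9 : rel 8 9 = true := by decide +kernel

theorem rel_0_10 : rel 0 10 = true := by decide +kernel

theorem rel_1_10 : rel 1 10 = true := by decide +kernel

theorem rel_2_10 : rel 2 10 = true := by decide +kernel

theorem rel_3_10 : rel 3 10 = true := by decide +kernel

theorem rel_4_10 : rel 4 10 = true := by decide +kernel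

theorem rel_5_10 : rel 5 10 = true := by decide +kernel

theorem rel_6_10 : rel 6 10 = true := by decide +kernel

theorem rel_7_10 : rel 7 10 = true := by decide +kernel

theorem rel_8_10 : rel 8 10 = true := by decide +kernel

theorem rel_9_10 : rel 9 10 = true := by decide +kernel

theorem rel_0_11 : rel 0 11 = true := by decide +kernel

theorem rel_1_11 : rel 1 11 = true := by decide +kernel

theorem rel_2_11 : rel 2 11 = true := by decide +kernel

theorem rel_3_11 : rel 3 11 = true := by decide +kernel

theorem rel_4_11 : rel 4 11 = true := by decide +kernel

theorem rel_5_11 : rel 5 11 = true := by decide +kernel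

theorem rel_6_11 : rel 6 11 = true := by decide +kernel

theorem rel_7_11 : rel 7 11 = true := by decide +kernel

theorem rel_8_11 : rel 8 11 = true := by decide +kernel

theorem rel_9_11 : rel 9 11 = true := by decide +kernel

theorem rel_10_11 : rel 10 11 = true := by decide +kernel

end Cfsg.Agent.Spor.MFi24.Mu
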