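import Mathlib
import Cfsg.Agent.Spor.MX.F24D
import Cfsg.Agent.S2054

/-!
The kernel of a stem extension of the derived group of Fi24 has order at most 3. The stabilisers Fi23 of the 306936
points lift uniquely; modulo a central subgroup `Z` of order at most 3 these lifts agree on intersections, and three
double cosets of the lifted stabiliser exhaust the extension.
-/

set_option autoImplicit false
set_option maxRecDepth 100000

namespace Cfsg.Agent.Spor.MFi24.Mu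

open Cfsg.Agent.Spor Cfsg.Agent.Ch Cfsg.Spor MulAction Subgroup
open scoped commutatorElement

/-- The points. -/
noncomputable abbrev o : ℕ → Fin 306936 := finE 306936

/-- The points of Fi23. -/
noncomputable abbrev e : ℕ → Fin 31671 := finE 31671

theorem psi_mem (y : Fi23) : psi y ∈ genLt k 10 := range_psi ▸ ⟨y, rfl⟩

theorem psi_fix (y : Fi23) : psi y • o 0 = o 0 := (levelk.stab ▸ psi_mem y : psi y ∈ genLt k 12 ⊓ stabilizer _ (o 0)).2

theorem exists_psi_eq {a : Fi24} (h : a ∈ genLt k 12) (h0 : a • o 0 = o 0) : ∃ y, psi y = a :=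
  (range_psi ▸ levelk.stab ▸ ⟨h, h0⟩ : a ∈ psi.range)

theorem psi_k {w : List ℕ} (hw : lettersLt 10 w = true := by rfl) : psi (evalW MFi23.g w) = evalW k w := by
  rw [map_evalW]
  exact evalW_congr fun x hx => have h := (lettersLt_iff _ _).1 hw x hx; (psi_g x h).trans (k_eq x h).symm

theorem psiP (y : Fi23) {i j : ℕ} (hi : i < 31671) (hj : j < 31671) : psi y • o (P i) = o (P j) ↔ y • e i = e j := by
  obtain ⟨θ, -, h2, h3, h4⟩ := exists_theta
  have h5 : ∀ y, θ ⟨psi y, k10_le (psi_mem y)⟩ = y := fun y =>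
    (genLt_le (K := (θ.comp (psi.codRestrict _ fun y => k10_le (psi_mem y))).eqLocus (MonoidHom.id _)) fun x hx => by
      have h6 := map_mul θ ⟨g x, mem_genLt g (by omega)⟩ ⟨g 10, mem_genLt g (by decide)⟩
      rw [h2, h3 x hx, mul_one] at h6
      exact (congrArg θ (Subtype.ext (psi_g x hx))).trans h6) (MFi23.top ▸ mem_top y)
  exact (h4 ⟨psi y, k10_le (psi_mem y)⟩ i hi j hj).trans (by rw [h5])

theorem P0 : P 0 = 88677 := by decide +kernel

theorem P8 : P 10331 = 8 := by decide +kernel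

theorem exists_e (y : Fi23) (i : ℕ) : ∃ j < 31671, y • e i = e j := ⟨_, (y • e i).2, (finE_coe _).symm⟩

theorem ksmul (w : List ℕ) (i j : ℕ)
    (h : band (lettersLt 12 w) (band (blt i 306936) (Nat.beq (traceP KT w i) j)) = true := by decide +kernel) :
    evalW k w • o i = o j := by
  rw [band_iff, band_iff, blt_iff] at h
  exact tabs.smul h.1 h.2.1 h.2.2

theorem keq (v w : List ℕ) (h : band (lettersLt 12 v) (band (lettersLt 12 w)
    (agreeL KT v w [0, 1, 88677, 72238, 8, 15, 22, 43, 48, 11])) = true := by decide +kernel) : evalW k v = evalW k w :=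
  tabs.eq_of_base basek (by decide +kernel) h

theorem u_smul : k 10 • o 0 = o 1 := by simpa using ksmul [10] 0 1

theorem o_ne {i : ℕ} (h : i < 306936) (h0 : i ≠ 0) : o i ≠ o 0 := fun h1 => h0 (finE_injOn 306936 h (by decide) h1)

/-- The stabiliser of the point 1 in Fi23. -/
noncomputable def L : Subgroup Fi23 := (stabilizer Fi24 (o 1)).comap psi

theorem comm_u {y : Fi23} (hy : y ∈ L) : Commute (psi y) (k 10) := by
  have h1 : ∀ a : Fi24, a • o 0 = o 0 → Commute a (g 10) := fun a h =>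
    mem_centralizer_singleton_iff.1 (centralizer_stab ▸ h : a ∈ centralizer {g 10})
  have h2 := h1 _ (psi_fix y)
  have h3 := h1 ((k 10)⁻¹ * psi y * k 10) (by rw [mul_smul, mul_smul, u_smul, show psi y • o 1 = o 1 from hy, inv_smul_eq_iff, u_smul])
  have h4 : Commute (psi y) (k 10 * g 10 * (k 10)⁻¹) := by
    have := h3.conj (k 10)
    rwa [show k 10 * ((k 10)⁻¹ * psi y * k 10) * (k 10)⁻¹ = psi y by group] at this
  have h5 : evalW g [11, 10, 10] = evalW g [10, 11, 10, 11, 10] := tabs0.eq_of_base baseg (by decide +kernel) (by decide +kernel)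
  have h6 : k 10 = g 11 * g 10 := by rw [k, show Kw.get 10 = [11, 10] by decide +kernel]; simp
  have h7 : k 10 = g 10 * (k 10 * g 10 * (k 10)⁻¹) := by
    rw [h6, mul_inv_rev, inv_eq_of_mul_eq_one_right (sq 10 (by decide)), inv_eq_of_mul_eq_one_right (sq 11 (by decide))]
    have h8 := congrArg (· * g 10) h5
    simp only [evalW_cons, evalW_nil, mul_one, mul_assoc, sq 10 (by decide)] at h8 ⊢
    exact h8
  rw [h7]
  exact h2.mul_right h4

theorem index_L : 275264 ≤ L.index := by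
  rw [L, index_comap, range_psi, ← inf_relIndex_left, relIndex_stabilizer]
  have h1 : (Set.univ : Set (Fin 306936)) ⊆ {o 0} ∪ (fun i => o (P i)) '' Set.Iio 31671 ∪ orbit (genLt k 10) (o 1) := by
    intro q _
    obtain ⟨r, hr, a, ha, h⟩ := coverk q.2
    obtain ⟨y, rfl⟩ : a ∈ psi.range := range_psi ▸ ha
    rw [finE_coe] at h
    simp only [List.mem_cons, List.not_mem_nil, or_false] at hr
    rcases hr with rfl | rfl | rfl
    · exact Or.inl (Or.inl (h.symm.trans (psi_fix y)))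
    · obtain ⟨j, hj, h2⟩ := exists_e y 10331
      exact Or.inl (Or.inr ⟨j, hj, ((psiP y (by decide) hj).2 h2).symm.trans (P8 ▸ h)⟩)
    · exact Or.inr ⟨⟨_, ha⟩, h⟩
  have h2 := (Set.ncard_le_ncard h1).trans ((Set.ncard_union_le _ _).trans (Nat.add_le_add_right
    ((Set.ncard_union_le _ _).trans (Nat.add_le_add_left (Set.ncard_image_le (Set.finite_Iio _)) _)) _))
  rw [Set.ncard_univ, Nat.card_fin, Set.ncard_singleton, ← Finset.coe_Iio, Set.ncard_coe_finset, Nat.card_Iio] at h2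
  omega

/-- The letters that commute with `k` and `l`. -/
noncomputable abbrev gi (x : ℕ) : Fi23 := MFi23.g (io x)

theorem tabsI : Tabs e 31671 (fun x => MFi23.S (io x)) gi 9 := MFi23.tabs0.comp (by decide +kernel)

theorem gi_sq (x : ℕ) (hx : x < 9) : gi x * gi x = 1 := by
  have h2 := (allLt_iff 9 fun x => band (blt (io x) 10) (Nat.beq (MFi23.inv (io x)) (io x))).1 (by decide +kernel) x hx
  rw [band_iff, blt_iff, nbeq_iff] at h2
  have h3 := MFi23.hinv _ h2.1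
  rwa [h2.2] at h3

theorem card_W : 1080 * 9170703360 ≤ Nat.card (genLt gi 9) := by
  refine (tabsI.lowLevel (finE_injOn 31671) le_rfl (by decide) (by decide) low).card inferInstance fun _ => ?_
  rw [← MFi23.cardEq8, show genLt gi 8 = genLt MFi23.g 8 from congrArg Subgroup.closure (Set.image_congr fun x hx =>
    congrArg _ ((nbeq_iff _ _).1 ((allLt_iff 8 fun x => Nat.beq (io x) x).1 (by decide +kernel) x hx)))]

theorem esmul (w : List ℕ) (i j : ℕ)
    (h : band (lettersLt 10 w) (band (blt i 31671) (Nat.beq (traceP MFi23.S w i) j)) = true := by decide +kernel) :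
    evalW MFi23.g w • e i = e j := by
  rw [band_iff, band_iff, blt_iff] at h
  exact MFi23.tabs0.smul h.1 h.2.1 h.2.2

/-- A word. -/
def wT : List ℕ := [4, 1, 0, 3, 6, 7, 9, 8, 2, 0, 3, 6, 7, 1, 0, 3, 6, 2, 0, 1, 4, 3, 0, 2, 1, 0, 3, 6, 7, 9]

theorem cover1 (i : ℕ) : ∃ y : Fi23, y • e 10331 = e 10331 ∧
    ∃ v ∈ [[], [4, 8, 1, 4], [8, 4]], (y * evalW MFi23.g v) • e 10331 = e i := by
  have h0 := esmul wT 0 10331
  obtain ⟨j, hj, h1⟩ := exists_e (evalW MFi23.g wT)⁻¹ i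
  obtain ⟨r, hr, a, ha, h2⟩ := MFi23.cover hj
  have h3 : a • e 0 = e 0 := (MFi23.levelH.stab ▸ ha : a ∈ ⊤ ⊓ stabilizer _ (e 0)).2
  have h5 : ∀ (t : Fi23) (v : List ℕ), t • e 0 = e 10331 → t • e r = evalW MFi23.g v • e 10331 →
      (evalW MFi23.g wT * a * t⁻¹) • e 10331 = e 10331 ∧
        (evalW MFi23.g wT * a * t⁻¹ * evalW MFi23.g v) • e 10331 = e i := fun t v t1 t2 => by
    simp only [mul_smul]
    rw [← t2, inv_smul_smul, inv_smul_eq_iff.2 t1.symm, h3, h0, show a • e r = e j from h2, ← h1, smul_inv_smul]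
    exact ⟨rfl, rfl⟩
  simp only [List.mem_cons, List.not_mem_nil, or_false] at hr
  rcases hr with rfl | rfl | rfl
  · exact (h5 _ [] h0 (h0.trans (one_smul _ _).symm)).elim fun a b => ⟨_, a, _, by simp, b⟩
  · exact (h5 _ [4, 8, 1, 4] (esmul (appL wT [6, 3, 0, 1, 4, 8, 7, 6, 3, 0, 1, 4]) 0 10331)
      ((esmul _ 6236 6247).trans (esmul _ 10331 6247).symm)).elim fun a b => ⟨_, a, _, by simp, b⟩
  · exact (h5 _ [8, 4] (esmul (appL wT [8, 4, 1, 0, 3, 6, 7]) 0 10331)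
      ((esmul _ 1 6249).trans (esmul _ 10331 6249).symm)).elim fun a b => ⟨_, a, _, by simp, b⟩

theorem cover2 {i : ℕ} (hi : i < 31671) : k 10 • o (P i) = o (P i) ∨ ∃ y ∈ genLt gi 9, y • e 10331 = e i := by
  rcases (bor_iff _ _).1 (allRange_zero cov2 i hi) with h | h
  · obtain ⟨r, -, h1, h2⟩ := tabsI.orb_root orb2 hi (Nat.le_of_ble_eq_true h)
    exact Or.inr ((nbeq_iff _ _).1 h1 ▸ h2)
  · have h1 := allRange_zero resl i hi
    rw [force_eq, band_iff, blt_iff] at h1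
    rw [force_eq, nbeq_iff] at h
    exact Or.inl ((tabs 10 (by decide) _ h1.1).2.trans (congrArg _ h))

theorem mem_or_mul_mem {G : Type*} [Group G] {a : ℕ → G} {n : ℕ} (hn : 0 < n) (h1 : ∀ x < n, a x * a x = 1)
    {M : Subgroup G} (h2 : ∀ x < n, a x * a 0 ∈ M) {y : G} (hy : y ∈ genLt a n) : y ∈ M ∨ y * a 0 ∈ M := by
  have h3 : ∀ x < n, a 0 * a x ∈ M := fun x hx => by
    have := inv_mem (h2 x hx)
    rwa [mul_inv_rev, inv_eq_of_mul_eq_one_right (h1 x hx), inv_eq_of_mul_eq_one_right (h1 0 hn)] at this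
  have h4 : ∀ x < n, ∀ y, (y ∈ M ∧ a 0 * y * a 0 ∈ M) ∨ (y * a 0 ∈ M ∧ a 0 * y ∈ M) →
      (a x * y ∈ M ∧ a 0 * (a x * y) * a 0 ∈ M) ∨ (a x * y * a 0 ∈ M ∧ a 0 * (a x * y) ∈ M) := fun x hx y hy => by
    have h5 : ∀ z, a x * a 0 * (a 0 * z) = a x * z := fun z => by
      rw [mul_assoc, ← mul_assoc (a 0), h1 0 hn, one_mul]
    rcases hy with ⟨b, c⟩ | ⟨b, c⟩
    · exact Or.inr ⟨by have := mul_mem (h2 x hx) c; rwa [mul_assoc (a 0), h5, ← mul_assoc] at this,
        by simpa only [mul_assoc] using mul_mem (h3 x hx) b⟩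
    · exact Or.inl ⟨h5 y ▸ mul_mem (h2 x hx) c, by simpa only [mul_assoc] using mul_mem (h3 x hx) b⟩
  refine Or.imp And.left And.left
    (closure_induction_left (p := fun y _ => (y ∈ M ∧ a 0 * y * a 0 ∈ M) ∨ (y * a 0 ∈ M ∧ a 0 * y ∈ M)) ?_ ?_ ?_ hy)
  · exact Or.inl ⟨one_mem _, by rw [mul_one, h1 0 hn]; exact one_mem _⟩
  · rintro _ ⟨x, hx, rfl⟩ y _ hy
    exact h4 x hx y hy
  · rintro _ ⟨x, hx, rfl⟩ y _ hy
    rw [inv_eq_of_mul_eq_one_right (h1 x hx)]
    exact h4 x hx y hy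

/-- A central extension of the derived group, with a lift of Fi23 and a lift `u` of `k l`. -/
structure Ctx {E : Type*} [Group E] (p : E →* Fi24) (η : Fi23 →* E) (u : E) : Prop where
  cen : ∀ a, p a = 1 → ∀ b, b * a = a * b
  sur : ∀ a ∈ genLt k 12, ∃ b, p b = a
  rng : ∀ a, p a ∈ genLt k 12
  lift : ∀ y, p (η y) = psi y
  hu : p u = k 10

namespace Ctx

variable {E : Type*} [Group E] {p : E →* Fi24} {η : Fi23 →* E} {u : E} (h : Ctx p η u)

include h

theorem chi_ker (y : L) : p (u⁻¹ * η y * u * (η y)⁻¹) = 1 := by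
  simp only [map_mul, map_inv, h.lift, h.hu]
  rw [mul_assoc _ (psi y), (comm_u y.2).eq]
  group

/-- The commutators of `u` with the lifts of the elements that fix the points 0 and 1. -/
noncomputable def chi : L →* E := MonoidHom.mk' (fun y => u⁻¹ * η y * u * (η y)⁻¹) fun a b => by
  have h1 := h.cen _ (h.chi_ker b) (η a)⁻¹
  calc _ = u⁻¹ * η a * u * ((u⁻¹ * η b * u * (η b)⁻¹) * (η a)⁻¹) := by
        simp only [coe_mul, map_mul]; group
    _ = _ := by rw [← h1]; group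

/-- The lift of the stabiliser. -/
noncomputable def A : Subgroup E := η.range ⊔ h.chi.range

theorem Z_ker {z : E} (hz : z ∈ h.chi.range) : p z = 1 := hz.elim fun y hy => hy ▸ h.chi_ker y

theorem eta_mem (y : Fi23) : η y ∈ h.A := mem_sup_left ⟨y, rfl⟩

theorem memA {a : E} (ha : a ∈ h.A) : ∃ y, ∃ z ∈ h.chi.range, a = η y * z := by
  have : h.chi.range.Normal := ⟨fun z hz b => by rwa [h.cen z (h.Z_ker hz) b, mul_inv_cancel_right]⟩
  obtain ⟨_, ⟨y, rfl⟩, z, hz, rfl⟩ := mem_sup_of_normal_right.1 ha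
  exact ⟨y, z, hz, rfl⟩

theorem fixA {a : E} (ha : a ∈ h.A) : p a • o 0 = o 0 := by
  obtain ⟨y, z, hz, rfl⟩ := h.memA ha
  rw [map_mul, h.Z_ker hz, mul_one, h.lift, psi_fix]

theorem preH {a : E} (ha : p a • o 0 = o 0) : ∃ y c, p c = 1 ∧ a = η y * c := by
  obtain ⟨y, hy⟩ := exists_psi_eq (h.rng a) ha
  exact ⟨y, (η y)⁻¹ * a, by rw [map_mul, map_inv, h.lift, hy, inv_mul_cancel], by group⟩

theorem conjA {a c : E} (hc : p c • o 0 = o 0) (ha : a ∈ h.A) : c⁻¹ * a * c ∈ h.A := by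
  obtain ⟨y, z, hz, rfl⟩ := h.preH hc
  rw [show (η y * z)⁻¹ * a * (η y * z) = z⁻¹ * (((η y)⁻¹ * a * η y) * z) by group, h.cen z hz, inv_mul_cancel_left]
  exact mul_mem (mul_mem (inv_mem (h.eta_mem y)) ha) (h.eta_mem y)

/-- Elements of `A` that fix the point `c • 0` lie in the conjugate of `A` by `c`. -/
def Star (c : E) : Prop := ∀ a ∈ h.A, p a • p c • o 0 = p c • o 0 → c⁻¹ * a * c ∈ h.A

theorem Star.of {c c' : E} (hs : h.Star c') {y : Fi23} (hy : psi y • p c' • o 0 = p c • o 0) : h.Star c := fun a ha h1 => by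
  rw [show c⁻¹ * a * c = ((η y * c')⁻¹ * c)⁻¹ * (c'⁻¹ * ((η y)⁻¹ * a * η y) * c') * ((η y * c')⁻¹ * c) by group]
  refine h.conjA ?_ (hs _ (h.conjA (h.fixA (h.eta_mem y)) ha) ?_)
  · rw [map_mul, map_inv, mul_smul, inv_smul_eq_iff, map_mul, mul_smul, h.lift, hy]
  · rw [map_mul, map_mul, map_inv, mul_smul, mul_smul, inv_smul_eq_iff, h.lift, hy, h1]

theorem star_u : h.Star u := fun a ha h1 => by
  obtain ⟨y, z, hz, rfl⟩ := h.memA ha
  rw [map_mul, h.Z_ker hz, mul_one, h.lift, h.hu, u_smul] at h1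
  rw [show u⁻¹ * (η y * z) * u = u⁻¹ * η y * (z * u) by group, ← h.cen z (h.Z_ker hz),
    show u⁻¹ * η y * (u * z) = u⁻¹ * η y * u * (η y)⁻¹ * (η y * z) by group]
  exact mul_mem (mem_sup_right ⟨⟨y, h1⟩, rfl⟩) ha

theorem star_m {m : E} (hm : p m • o 0 = o (P 0)) : h.Star m := fun a ha h1 => by
  obtain ⟨y, z, hz, rfl⟩ := h.memA ha
  rw [map_mul, h.Z_ker hz, mul_one, h.lift, hm, psiP y (by decide) (by decide)] at h1
  have h2 : ∀ y, y ∈ genLt MFi23.g 9 ↔ y • e 0 = e 0 := fun y => by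
    rw [← MFi23.level0.stab, MFi23.topk, top_inf_eq, mem_stabilizer_iff]
  have := S2054.perfectH
  have h3 : commutator (genLt MFi23.g 9) ≤
      h.A.comap (((MulAut.conj m⁻¹).toMonoidHom.comp η).comp (genLt MFi23.g 9).subtype) := commutator_le.2 fun a _ b _ => by
    have h4 : ∀ a : genLt MFi23.g 9, p (m⁻¹ * η a * m⁻¹⁻¹) • o 0 = o 0 := fun a => by
      rw [inv_inv, map_mul, map_mul, map_inv, mul_smul, mul_smul, inv_smul_eq_iff, hm, h.lift,
        psiP _ (by decide) (by decide), (h2 a).1 a.2]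
    obtain ⟨a', c, hc, a1⟩ := h.preH (h4 a)
    obtain ⟨b', d, hd, b1⟩ := h.preH (h4 b)
    rw [mem_comap, map_commutatorElement]
    show ⁅m⁻¹ * η a * m⁻¹⁻¹, m⁻¹ * η b * m⁻¹⁻¹⁆ ∈ _
    rw [a1, b1, commutatorElement_def, show η a' * c * (η b' * d) * (η a' * c)⁻¹ * (η b' * d)⁻¹ =
      η a' * (c * (η b' * d)) * c⁻¹ * (η a')⁻¹ * d⁻¹ * (η b')⁻¹ by group, ← h.cen c hc, ← mul_assoc, mul_inv_cancel_right,
      ← mul_assoc, mul_assoc _ d, ← h.cen d hd, ← mul_assoc, mul_inv_cancel_right]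
    exact mul_mem (mul_mem (mul_mem (h.eta_mem _) (h.eta_mem _)) (inv_mem (h.eta_mem _))) (inv_mem (h.eta_mem _))
  have h5 : m⁻¹ * η y * m⁻¹⁻¹ ∈ h.A := h3 (Group.IsPerfect.mem_commutator (g := ⟨y, (h2 y).2 h1⟩))
  rw [show m⁻¹ * (η y * z) * m = m⁻¹ * η y * (z * m) by group, ← h.cen z (h.Z_ker hz), ← mul_assoc]
  exact mul_mem (by rwa [inv_inv] at h5) (mem_sup_right hz)

theorem exists_pt (q : Fin 306936) : ∃ m, p m • o 0 = q := by
  obtain ⟨y, hy, h1⟩ := transitive q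
  obtain ⟨m, rfl⟩ := h.sur y hy
  exact ⟨m, h1⟩

theorem star (c : E) : h.Star c := by
  obtain ⟨r, hr, a, ha, h1⟩ := coverk (p c • o 0).2
  obtain ⟨y, rfl⟩ : a ∈ psi.range := range_psi ▸ ha
  rw [finE_coe] at h1
  simp only [List.mem_cons, List.not_mem_nil, or_false] at hr
  rcases hr with rfl | rfl | rfl
  · exact fun a ha _ => h.conjA (h1.symm.trans (psi_fix y)) ha
  · obtain ⟨m, hm⟩ := h.exists_pt (o (P 0))
    refine Star.of h (h.star_m hm) (y := y * evalW MFi23.g wT) ?_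
    rw [hm, map_mul, mul_smul, (psiP _ (by decide) (by decide)).2 (esmul wT 0 10331), P8, h1]
  · exact Star.of h h.star_u (y := y) (by rw [h.hu, u_smul, h1])

/-- Canonical lifts, up to the group `Z`. -/
def Can (a : E) : Prop := ∃ c, c⁻¹ * a * c ∈ h.A

theorem can_of_mem {a : E} (ha : a ∈ h.A) : h.Can a := ⟨1, by simpa using ha⟩

theorem Can.mem {a : E} (ha : h.Can a) {c : E} (hc : p a • p c • o 0 = p c • o 0) : c⁻¹ * a * c ∈ h.A := by
  obtain ⟨d, hd⟩ := ha
  have h1 := h.star (d⁻¹ * c) _ hd (by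
    simp only [map_mul, map_inv, mul_smul, smul_inv_smul, hc])
  rwa [show (d⁻¹ * c)⁻¹ * (d⁻¹ * a * d) * (d⁻¹ * c) = c⁻¹ * a * c by group] at h1

theorem commute {a b : E} (ha : h.Can a) (hb : h.Can b) {q : Fin 306936} (h1 : p a • q = q) (h2 : p b • q = q)
    (h3 : Commute (p a) (p b)) : Commute a b := by
  obtain ⟨m, rfl⟩ := h.exists_pt q
  obtain ⟨y, z, hz, a1⟩ := h.memA (ha.mem h h1)
  obtain ⟨y', z', hz', b1⟩ := h.memA (hb.mem h h2)
  have h4 := (h3.conj (p m)⁻¹)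
  rw [inv_inv, ← map_inv, ← map_mul, ← map_mul, ← map_mul, ← map_mul, a1, b1, map_mul, map_mul, h.Z_ker hz, h.Z_ker hz',
    mul_one, mul_one, h.lift, h.lift] at h4
  have h5 : Commute y y' := psi_injective (by rw [map_mul, map_mul, h4.eq])
  have h6 : Commute (η y * z) (η y' * z') := ((h5.map η).mul_right (h.cen z' (h.Z_ker hz') _)).mul_left
    (h.cen z (h.Z_ker hz) _).symm
  have h7 := h6.conj m
  rwa [← a1, ← b1, show m * (m⁻¹ * a * m) * m⁻¹ = a by group, show m * (m⁻¹ * b * m) * m⁻¹ = b by group] at h7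

theorem even_mem (hu : h.Can u) {x : ℕ} (hx : x < 9) : Commute (η (gi x * gi 0)) u := by
  have h0 : ∀ x < 9, gi x * gi 0 = evalW MFi23.g [io x, 0] := fun x _ => by simp; rfl
  have h1 := (allLt_iff 9 fun x => band (lettersLt 10 [io x, 0]) (force (Bool.rec 88677 16 (Nat.beq x 8)) fun q =>
    band (band (blt q 306936) (Nat.beq (traceP KT [io x, 0] 1) 1))
      (band (Nat.beq (traceP KT [io x, 0] q) q) (Nat.beq (traceP KT [10] q) q)))).1 (by decide +kernel) x hx
  simp only [band_iff, force_eq, blt_iff] at h1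
  obtain ⟨h2, ⟨h3, h4⟩, h5, h6⟩ := h1
  have h7 : p (η (gi x * gi 0)) = evalW k [io x, 0] := by rw [h.lift, h0 x hx, psi_k h2]
  have h8 : lettersLt 12 [io x, 0] = true := (lettersLt_iff _ _).2 fun y hy => by
    have := (lettersLt_iff _ _).1 h2 y hy
    omega
  refine h.commute (h.can_of_mem (h.eta_mem _)) hu (h7 ▸ tabs.smul h8 h3 h5) ?_ ?_
  · simpa [h.hu] using tabs.smul (w := [10]) rfl h3 h6
  · rw [h.hu, h.lift]
    exact comm_u (show psi _ • o 1 = o 1 from h.lift _ ▸ h7 ▸ tabs.smul h8 (by decide) h4)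

theorem even_or (hu : h.Can u) {y : Fi23} (hy : y ∈ genLt gi 9) : Commute (η y) u ∨ Commute (η (y * gi 0)) u := by
  have h1 : ∀ y, y ∈ (centralizer {u}).comap η ↔ η y * u = u * η y := fun y => mem_centralizer_singleton_iff
  rw [commute_iff_eq, commute_iff_eq, ← h1, ← h1]
  exact mem_or_mul_mem (by decide) gi_sq (fun x hx => (h1 _).2 (h.even_mem hu hx)) hy

theorem card_Z (hu : h.Can u) : Nat.card h.chi.range ≤ 3 := by
  classical
  have h1 : ∀ y, Commute (η y) u → ∃ hy : y ∈ L, ⟨y, hy⟩ ∈ h.chi.ker := fun y hy => ⟨by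
    show psi y • o 1 = o 1
    rw [← u_smul, ← h.lift, ← h.hu, ← mul_smul, ← map_mul, hy.eq, map_mul, mul_smul, h.lift, psi_fix], by
      show u⁻¹ * η y * u * (η y)⁻¹ = 1
      rw [mul_assoc _ (η y), hy.eq]; group⟩
  have h2 : Nat.card (genLt gi 9) ≤ Nat.card (h.chi.ker × Bool) := Nat.card_le_card_of_injective
    (fun y => if hy : Commute (η y) u then (⟨_, (h1 y hy).2⟩, true)
      else (⟨_, (h1 _ ((h.even_or hu y.2).resolve_left hy)).2⟩, false)) fun a b hab => by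
    dsimp only at hab
    split_ifs at hab <;> simp only [Prod.mk.injEq, Subtype.mk.injEq, mul_left_inj] at hab
    exacts [Subtype.ext hab.1, absurd hab.2 (by decide), absurd hab.2 (by decide), Subtype.ext hab.1]
  have h3 := h.chi.ker.index_mul_card
  have h4 := L.index_mul_card
  rw [Nat.card_prod, Nat.card_eq_fintype_card (α := Bool), Fintype.card_bool] at h2
  rw [← h3, index_ker, MFi23.card] at h4
  have h5 := Nat.mul_le_mul index_L (Nat.mul_le_mul_left (Nat.card h.chi.range)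
    (show 4952179814400 ≤ Nat.card h.chi.ker by have := card_W; omega))
  omega

/-- Three double cosets. -/
def U (x : E) : Set E := {c | ∃ a ∈ h.A, ∃ b ∈ h.A, ∃ w, (w = 1 ∨ w = x ∨ w = u) ∧ c = a * w * b}

theorem U_mul {x a b c : E} (ha : a ∈ h.A) (hb : b ∈ h.A) (hc : c ∈ h.U x) : a * c * b ∈ h.U x := by
  obtain ⟨a', ha', b', hb', w, hw, rfl⟩ := hc
  exact ⟨_, mul_mem ha ha', _, mul_mem hb' hb, w, hw, by group⟩

theorem mem_U {x : E} (hu : h.Can u) (hx : h.Can x) (h1 : p x = evalW k [10, 8, 11]) {a : E} (ha : a ∈ h.A) {w : E}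
    (hw : w = 1 ∨ w = x ∨ w = u) : w * a * x ∈ h.U x := by
  obtain ⟨m, hm⟩ := h.exists_pt (o 88677)
  let B := h.A.comap (MulAut.conj m⁻¹).toMonoidHom
  have hB : ∀ c, h.Can c → p c • o 88677 = o 88677 → c ∈ B := fun c hc h2 => by
    simpa [B] using hc.mem h (hm ▸ h2)
  have x1 : x ∈ B := hB x hx (h1 ▸ ksmul _ _ _)
  have u1 : u ∈ B := hB u hu (by simpa [h.hu] using ksmul [10] 88677 88677)
  have e1 : ∀ v, lettersLt 9 v = true → η (evalW MFi23.g v) ∈ B := fun v hv => by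
    rw [map_evalW]
    refine evalW_mem fun y hy => hB _ (h.can_of_mem (h.eta_mem _)) ?_
    have h3 := (lettersLt_iff _ _).1 hv y hy
    rw [h.lift, ← P0, psiP _ (by decide) (by decide)]
    exact (MFi23.level0.stab ▸ mem_genLt _ h3 : MFi23.g y ∈ genLt MFi23.k 10 ⊓ stabilizer _ (e 0)).2
  have key : ∀ {c c' : E}, c ∈ B → c' ∈ B → p c = p c' → c' ∈ h.U x → c ∈ h.U x := fun {c c'} hc hc' h2 h3 => by
    have h4 : m⁻¹ * (c'⁻¹ * c) * m⁻¹⁻¹ ∈ h.A := B.mul_mem (inv_mem hc') hc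
    rw [h.cen _ (by rw [map_mul, map_inv, h2, inv_mul_cancel]) m⁻¹, mul_inv_cancel_right] at h4
    simpa using h.U_mul (one_mem _) h4 h3
  have key2 : ∀ {c w : E} (v : List ℕ), (w = x ∨ w = u) → c ∈ B → lettersLt 9 v = true →
      p c = evalW k v * p w * evalW k v → c ∈ h.U x := fun {c w} v hw hc hv h2 => by
    have h3 : lettersLt 10 v = true := (lettersLt_iff _ _).2 fun y hy => by
      have := (lettersLt_iff _ _).1 hv y hy
      omega
    exact key hc (mul_mem (mul_mem (e1 v hv) (hw.elim (· ▸ x1) (· ▸ u1))) (e1 v hv))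
      (by rw [h2, map_mul, map_mul, h.lift, psi_k h3]) ⟨_, h.eta_mem _, _, h.eta_mem _, w, Or.inr hw, rfl⟩
  have x0 : p x • o 0 = o (P 10331) := by rw [h1, P8]; exact ksmul _ _ _
  have x8 : p x⁻¹ • o 0 = o (P 10331) := by rw [map_inv, inv_smul_eq_iff, h1, P8]; exact (ksmul _ _ _).symm
  obtain ⟨y, z, hz, a1⟩ := h.memA ha
  obtain ⟨i, hi, a2⟩ := exists_e y 10331
  have a3 : p a • o (P 10331) = o (P i) := by
    rw [a1, map_mul, h.Z_ker hz, mul_one, h.lift, psiP _ (by decide) hi, a2]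
  have a4 : ∀ y' : Fi23, y' • e 10331 = e i → x⁻¹ * ((η y')⁻¹ * a) * x ∈ h.A := fun y' h2 =>
    h.star x _ (mul_mem (inv_mem (h.eta_mem _)) ha) (by
      rw [x0, map_mul, map_inv, mul_smul, a3, inv_smul_eq_iff, h.lift, (psiP _ (by decide) hi).2 h2])
  rcases hw with rfl | rfl | rfl
  · exact ⟨a, ha, 1, one_mem _, x, Or.inr (Or.inl rfl), by group⟩
  · obtain ⟨y', b1, v, hv, b2⟩ := cover1 i
    have b3 := h.star w⁻¹ _ (h.eta_mem y') (by rw [x8, h.lift, psiP _ (by decide) (by decide), b1])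
    rw [show w * a * w = w⁻¹⁻¹ * η y' * w⁻¹ * (w * η (evalW MFi23.g v) * w) * (w⁻¹ * ((η (y' * evalW MFi23.g v))⁻¹ * a) * w) by
      rw [map_mul]; group]
    refine h.U_mul b3 (a4 _ b2) ?_
    simp only [List.mem_cons, List.not_mem_nil, or_false] at hv
    rcases hv with rfl | rfl | rfl
    · refine key (mul_mem (mul_mem x1 (e1 _ rfl)) x1) (one_mem _) ?_ ⟨1, one_mem _, 1, one_mem _, 1, Or.inl rfl, by group⟩
      simpa [h1, mul_assoc] using keq [10, 8, 11, 10, 8, 11] []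
    · refine key2 [4, 8, 1, 4] (Or.inl rfl) (mul_mem (mul_mem x1 (e1 _ rfl)) x1) rfl ?_
      rw [map_mul, map_mul, h.lift, psi_k, h1]
      simpa [mul_assoc] using keq [10, 8, 11, 4, 8, 1, 4, 10, 8, 11] [4, 8, 1, 4, 10, 8, 11, 4, 8, 1, 4]
    · refine key2 [8, 4, 8] (Or.inr rfl) (mul_mem (mul_mem x1 (e1 _ rfl)) x1) rfl ?_
      rw [map_mul, map_mul, h.lift, psi_k, h1, h.hu]
      simpa [mul_assoc] using keq [10, 8, 11, 8, 4, 10, 8, 11] [8, 4, 8, 10, 8, 4, 8]
  · rcases cover2 hi with b | ⟨y', b1, b2⟩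
    · have b1 := hu.mem h (c := a * x) (by rw [map_mul, mul_smul, x0, a3, h.hu, b])
      exact ⟨a, ha, _, b1, x, Or.inr (Or.inl rfl), by group⟩
    obtain ⟨y'', b3, b4⟩ : ∃ y'', Commute (η y'') w ∧ y'' • e 10331 = e i := (h.even_or hu b1).elim (fun b => ⟨_, b, b2⟩)
      fun b => ⟨_, b, by rw [mul_smul, show gi 0 • e 10331 = e 10331 from (congrArg (· • e 10331) (mul_one _).symm).trans (esmul [0] 10331 10331), b2]⟩
    rw [show w * a * x = (w * η y'') * (x * (x⁻¹ * ((η y'')⁻¹ * a) * x)) by group, ← b3.eq, mul_assoc, ← mul_assoc w,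
      ← mul_assoc]
    refine h.U_mul (h.eta_mem _) (a4 _ b4) (key2 [8] (Or.inr rfl) (mul_mem u1 x1) rfl ?_)
    rw [map_mul, h1, h.hu]
    simpa [mul_assoc] using keq [10, 10, 8, 11] [8, 10, 8]

theorem sub_U {x : E} (hu : h.Can u) (hx : h.Can x) (h1 : p x = evalW k [10, 8, 11]) {c : E}
    (hc : c ∈ closure (insert x h.A)) : c ∈ h.U x := by
  have h2 : ∀ c ∈ h.U x, c * x ∈ h.U x := by
    rintro _ ⟨a, ha, b, hb, w, hw, rfl⟩
    simpa [mul_assoc] using h.U_mul ha (one_mem _) (h.mem_U hu hx h1 hb hw)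
  have h3 : ∀ a ∈ h.A, ∀ c ∈ h.U x, c * a ∈ h.U x := fun a ha c hc => by simpa using h.U_mul (one_mem _) ha hc
  have h4 : x * x ∈ h.A := by
    obtain ⟨d, hd⟩ := hx
    have h5 := mul_mem hd hd
    have h6 : p (x * x) = 1 := by simpa [h1, mul_assoc] using keq [10, 8, 11, 10, 8, 11] []
    rwa [show d⁻¹ * x * d * (d⁻¹ * x * d) = d⁻¹ * (x * x) * d by group, h.cen _ h6, inv_mul_cancel_right] at h5
  refine closure_induction_right (p := fun c _ => c ∈ h.U x) ⟨1, one_mem _, 1, one_mem _, 1, Or.inl rfl, by group⟩ ?_ ?_ hc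
  · rintro c _ a (rfl | ha) hc
    exacts [h2 c hc, h3 a ha c hc]
  · rintro c _ a (rfl | ha) hc
    · simpa [mul_assoc] using h3 _ (inv_mem h4) _ (h2 c hc)
    · exact h3 _ (inv_mem ha) c hc

end Ctx

theorem card_ker_le {E : Type} [Group E] (π : E →* Fi24') (hπ : IsStemExtension π) : Nat.card π.ker ≤ 3 := by
  have hc : ∀ a : Fi24, a ∈ commutator Fi24 ↔ a ∈ genLt k 12 := fun a => by rw [commutator_eq]
  have := MFi23.simple
  have : Group.IsPerfect Fi23 := Group.isPerfect_def.2 (MX.perfect_of_simple MFi23.card (by decide +kernel))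
  obtain ⟨η, hη⟩ := exists_lift_of_trivial_multiplier S2054.result
    (psi.codRestrict (commutator Fi24) fun y => (hc _).2 (genLt_mono k (by decide) (psi_mem y))) hπ.1 hπ.2.1
  let p : E →* Fi24 := (commutator Fi24).subtype.comp π
  have h0 : ∀ u, p u = k 10 → Ctx p η u := fun u hu => ⟨fun a ha b => mem_center_iff.1 (hπ.2.1 (Subtype.ext ha)) b,
    fun a ha => (hπ.1 ⟨a, (hc a).2 ha⟩).imp fun _ h => congrArg Subtype.val h, fun a => (hc _).1 (π a).2,
    fun y => congrArg Subtype.val (DFunLike.congr_fun hη y), hu⟩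
  obtain ⟨u0, u1⟩ := hπ.1 ⟨k 10, (hc _).2 (mem_genLt k (by decide))⟩
  have h1 := h0 u0 (congrArg Subtype.val u1)
  obtain ⟨m, hm⟩ := h1.exists_pt (o 88677)
  have h2 : ∀ a ∈ genLt k 12, a • o 88677 = o 88677 → ∃ y, p (m * η y * m⁻¹) = a := fun a ha h => by
    obtain ⟨y, hy⟩ := exists_psi_eq (a := (p m)⁻¹ * a * p m) (mul_mem (mul_mem (inv_mem (h1.rng m)) ha) (h1.rng m))
      (by rw [mul_smul, mul_smul, hm, h, inv_smul_eq_iff, hm])
    exact ⟨y, by rw [map_mul, map_mul, map_inv, h1.lift, hy]; group⟩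
  obtain ⟨y, hy⟩ := h2 (k 10) (mem_genLt k (by decide)) (by simpa using ksmul [10] 88677 88677)
  obtain ⟨y', hy'⟩ := h2 (evalW k [10, 8, 11]) (evalW_mem_genLt k rfl) (ksmul _ _ _)
  have h := h0 _ hy
  have h3 : ∀ y, h.Can (m * η y * m⁻¹) := fun y => ⟨m, by simpa [mul_assoc] using h.eta_mem y⟩
  have h4 : closure (insert (m * η y' * m⁻¹) (h.A : Set E)) = ⊤ := by
    refine eq_top_of_map_eq_top_of_ker_le_commutator π hπ.2.1 hπ.2.2 _ ?_
    rcases maximalk ((closure (insert (m * η y' * m⁻¹) (h.A : Set E))).map p) (range_psi ▸ by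
      rintro _ ⟨a, rfl⟩
      exact ⟨_, subset_closure (Or.inr (h.eta_mem a)), h.lift a⟩) (by rintro _ ⟨a, -, rfl⟩; exact h.rng a) with h5 | h5
    · obtain ⟨a, ha⟩ : evalW k [10, 8, 11] ∈ psi.range := range_psi ▸ h5 ▸ ⟨_, subset_closure (Or.inl rfl), hy'⟩
      exact absurd ((ksmul _ 0 8).symm.trans (ha ▸ psi_fix a)) (o_ne (by decide) (by decide))
    · refine eq_top_iff.2 fun a _ => ?_
      obtain ⟨b, hb, h6⟩ := h5.ge ((hc _).1 a.2)
      exact ⟨b, hb, Subtype.ext h6⟩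
  refine le_trans ?_ (h.card_Z (h3 y))
  have : Finite h.chi.range := Finite.of_surjective _ h.chi.rangeRestrict_surjective
  refine card_le_of_le fun c hc1 => ?_
  obtain ⟨a, ha, b, hb, w, hw, rfl⟩ := h.sub_U (h3 y) (h3 y') hy' (h4 ▸ mem_top c)
  have h5 : p (a * w * b) = 1 := congrArg Subtype.val hc1
  have h6 : p w • o 0 = o 0 := by
    have h7 := congrArg (· • o 0) h5
    simp only [map_mul, mul_smul, h.fixA hb, one_smul] at h7
    rw [← smul_left_cancel_iff (p a), h7, h.fixA ha]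
  rcases hw with rfl | rfl | rfl
  · obtain ⟨y, z, hz, h7⟩ := h.memA (mul_mem ha hb)
    rw [mul_one, h7] at h5 ⊢
    rw [map_mul, h.Z_ker hz, mul_one, h.lift, map_eq_one_iff _ psi_injective] at h5
    rwa [h5, map_one, one_mul]
  · exact absurd ((ksmul _ 0 8).symm.trans (hy' ▸ h6)) (o_ne (by decide) (by decide))
  · exact absurd (u_smul.symm.trans (hy ▸ h6)) (o_ne (by decide) (by decide))

end Cfsg.Agent.Spor.MFi24.Mu
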