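import Mathlib
import Cfsg.Agent.Spor.MX.Glue3
import Cfsg.Agent.Spor.MX.Sect3

/-! Extending given lifts by new letters so that the relators hold; sections from the bounds `Lifts`. -/

set_option autoImplicit false

namespace Cfsg.Agent.Spor.MX

open Cfsg.Agent.Spor Cfsg.Agent.Ch Cfsg.Agent.Chev Function

universe u

/-- Lifts of the old letters that lie in a subgroup meeting the kernel trivially extend to the new letters. -/
theorem LC.lift_rels {G E : Type*} [Group G] [Group E] {π : E →* G} (hp : IsCE π) {g : ℕ → G} {C : LC} {L : LA}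
    (hrels : ∀ i, evalW g (C.rels.get i) = 1) (c0 : C.base = true) (c1 : C.Upto C.T.N) (c2 : L.ok C = true)
    (hs : L.s = 0) (hq : ∀ z, π z = 1 → z ^ L.q = 1) {H : Subgroup E} (hH : ∀ z ∈ H, π z = 1 → z = 1) {g0 : ℕ → E}
    (b1 : ∀ x < C.T.mH, π (g0 x) = g x ∧ g0 x ∈ H) :
    ∃ g' : ℕ → E, (∀ x, π (g' x) = g x) ∧ (∀ x < C.T.mH, g' x = g0 x) ∧
      ∀ i, inR C.o C.k i = true → evalW g' (C.rels.get i) = 1 := by
  have F := num_of_base c0
  have hc := hp.cen
  unfold LA.ok at c2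
  simp only [band_iff, blt_iff, allLt_iff, nbeq_iff, Nat.ble_eq] at c2
  obtain ⟨a1, a2, a3, a4, a5, -⟩ := c2
  have a4' : L.bU * L.q < 2 ^ C.w := by
    have : L.bU * L.q < 1 <<< C.w := a4
    rwa [Nat.shiftLeft_eq, one_mul] at this
  have b3 : ∀ x, ∃ y : E, π y = g x ∧ (x < C.T.mH → y = g0 x) := fun x => by
    by_cases h1 : x < C.T.mH
    · exact ⟨g0 x, (b1 x h1).1, fun _ => rfl⟩
    · obtain ⟨y, hy⟩ := hp.surj (g x)
      exact ⟨y, hy, fun h3 => absurd h3 h1⟩
  choose g1 b4 b5 using b3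
  have b6 : ∀ x < C.T.mH, g1 x ∈ H := fun x hx => b5 x hx ▸ (b1 x hx).2
  let _ : CommGroup (Subgroup.center E) := commGroupOfLeCenter le_rfl
  let μ := QuotientGroup.mk' (H.subgroupOf (Subgroup.center E))
  have hμ : ∀ z, μ z = 1 ↔ (z : E) ∈ H := fun z => by
    rw [QuotientGroup.mk'_apply, QuotientGroup.eq_one_iff, Subgroup.mem_subgroupOf]
  have hker : ∀ i, evalW g1 (C.rels.get i) ∈ π.ker := fun i => by
    rw [MonoidHom.mem_ker, map_evalW, evalW_congr fun x _ => b4 x, hrels]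
  let τ : ℕ → Subgroup.center E := fun j => ⟨_, hc (hker (C.o + j))⟩
  have hτ : ∀ j, μ (τ j) ^ L.q = 1 := fun j => by
    rw [← map_pow, show τ j ^ L.q = 1 from Subtype.ext (hq _ (hker _)), map_one]
  have V : Valid μ g1 H C fun j => μ (τ j) := by
    refine ⟨hμ, fun j => ?_, fun i h1 h2 => ?_, b6, c0⟩
    · obtain ⟨c, hc⟩ := Nat.dvd_of_mod_eq_zero a1
      rw [hc, pow_mul, hτ, one_pow]
    · refine ⟨⟨_, hc (hker i)⟩, ?_, (one_mul _).symm⟩
      cases h3 : inR C.o C.k i with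
      | true =>
        obtain ⟨h4, h5, h6⟩ := rlab_in (w := C.w) h3
        rw [LC.rl, h6, (ev_unit F.w h4).2]
        simp only [τ, h5]
      | false =>
        unfold goodB at h1
        rw [h3] at h1
        rw [LC.rl, rlab, h3]
        exact ((hμ _).2 (evalW_mem fun x hx => b6 x ((lettersLt_iff _ _).1 h1 x hx))).trans psi_zero.symm
  have hk : ∀ n, ((psi C.w C.k τ n : Subgroup.center E) : E) ∈ π.ker := fun n =>
    psi_mem (S := π.ker.subgroupOf (Subgroup.center E)) (fun j => hker _) n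
  have k4 : ∀ n < L.t + L.s, psi C.w C.k (fun j => μ (τ j)) (L.vec C n) ∈ (⊥ : Subgroup _) := fun n hn => by
    have h2 : Nat.ble L.t n = false := by
      cases h3 : Nat.ble L.t n
      · rfl
      · exact absurd (Nat.le_of_ble_eq_true h3) (by omega)
    rw [LA.vec, h2]
    exact V.rho c1 n
  let σ : ℕ → Subgroup.center E := fun x => psi C.w C.k τ (L.sft C x)
  have s2 : ∀ x, π (g1 x * σ x) = g x := fun x => by rw [map_mul, b4 x, MonoidHom.mem_ker.1 (hk _), mul_one]
  refine ⟨fun x => g1 x * σ x, s2, fun x hx => ?_, fun i h3 => hH _ ?_ ?_⟩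
  · have h2 : Nat.ble C.T.mH x = false := by
      cases h3 : Nat.ble C.T.mH x
      · rfl
      · exact absurd (Nat.le_of_ble_eq_true h3) (by omega)
    have h3 : σ x = 1 := by
      show psi C.w C.k τ (L.sft C x) = 1
      rw [LA.sft, h2]
      exact psi_zero
    simp only [h3, b5 x hx, Subgroup.coe_one, mul_one]
  · obtain ⟨h4, h5, h6⟩ := rlab_in (w := C.w) h3
    have d2 := a5 _ h4
    rw [show Nat.add C.o (i - C.o) = i from h5, len_eq] at d2
    have d3 := LA.combB_bound d2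
    have d5 : Ev C.w C.k (fun j => μ (τ j)) (C.rl i) 1 (μ (τ (i - C.o))) := by
      rw [LC.rl, h6]; exact ev_unit F.w h4
    have d4 := LA.combB_sound F hτ (bd_of_bdB a3) a4' k4
      (Ev.sumW F.w (L.bd_sft F) _ d5 (lt_of_le_of_lt (Nat.le_add_left _ _) d3)) d2
    have h7 : (τ (i - C.o) : E) = evalW g1 (C.rels.get i) := by simp only [τ, h5]
    rw [evalW_mul_central, ← h7, ← Subgroup.coe_mul, ← hμ, map_mul, mul_comm, map_evalW]
    simpa only [σ, map_psi, Subgroup.mem_bot] using d4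
  · rw [map_evalW, evalW_congr fun x _ => s2 x, hrels]

/-- A section over the subgroup. -/
theorem Gen.exists_sect {G : Type u} [Group G] {K : Subgroup G} {g : ℕ → G} {rels : LT} {m N q : ℕ}
    (hg : Gen K g rels m N) (h : Lifts q g m N) {E : Type u} [Group E] {π : E →* G} (hp : IsCE π)
    (hq : ∀ z, π z = 1 → z ^ q = 1) : ∃ η : K →* E, ∀ y, π (η y) = y := by
  obtain ⟨g', h1, h2, h3⟩ := h E π (fun x _ => hp.surj _) hp.cen hq
  have h4 := (map_genLt' π h1).trans hg.1
  have := Nat.finite_of_card_ne_zero h2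
  let f : genLt g' m →* K := (π.comp (Subgroup.subtype _)).codRestrict K fun y => h4 ▸ ⟨y, y.2, rfl⟩
  have h5 : Surjective f := fun y => by
    obtain ⟨x, hx, e⟩ := h4.ge y.2
    exact ⟨⟨x, hx⟩, Subtype.ext e⟩
  let e := MulEquiv.ofBijective f (h5.bijective_of_nat_card_le (hg.2.2 ▸ h3))
  exact ⟨(Subgroup.subtype _).comp e.symm.toMonoidHom, fun y => congrArg Subtype.val (e.apply_symm_apply y)⟩

/-- Relations of dihedral type lift if the kernel has odd order. -/
theorem pow_dihedral {G E : Type*} [Group G] [Group E] {π : E →* G} (hp : IsCE π) {p n : ℕ} (hk : Nat.card π.ker = p)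
    (h2 : Nat.Coprime 2 p) {x y : E} (hx : x * x = 1) (hy : y * y = 1) (h : π ((x * y) ^ n) = 1) : (x * y) ^ n = 1 := by
  refine eq_one_of_pow_of_card_ker hk h2 _ h ?_
  have h1 : x * (x * y) * x⁻¹ = (x * y)⁻¹ := by
    rw [← mul_assoc, hx, one_mul, mul_inv_rev, inv_eq_of_mul_eq_one_left hy]
  have h3 := hp.conj_eq h x
  rw [← conj_pow, h1, inv_pow] at h3
  rw [sq]
  nth_rw 1 [← h3]
  exact inv_mul_cancel _

end Cfsg.Agent.Spor.MX
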