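import Mathlib
import Cfsg.Agent.Spor.MX.F42D

/-! Generated by tools/mx: the chain S8(2) < F4(2) -/

set_option autoImplicit false
set_option maxRecDepth 100000
set_option linter.unusedVariables false
set_option exponentiation.threshold 100000

namespace Cfsg.Agent.Spor.MX

open Cfsg.Agent.Spor

universe u

theorem f42_b : f42_C.base = true := by decide +kernel

theorem f42_s0 : f42_C.slots (nat_lit 0) (nat_lit 1671) = true := by decide +kernel

theorem f42_U_c1 : f42_U.rules.all (ruleOK f42_U.m f42_U.inv f42_rels) = true := by decide +kernel
theorem f42_U_c2 : f42_U.subs.all (subOK f42_U.m f42_U.inv (LT.leaf [])) = true := by decide +kernel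
theorem f42_U_c3 : f42_U.base = true := by decide +kernel

theorem f42_U_s0 : f42_U.slots (nat_lit 0) (nat_lit 2177) = true := by decide +kernel

theorem f42_U_s1 : f42_U.slots (nat_lit 2177) (nat_lit 2206) = true := by decide +kernel

theorem f42_U_s2 : f42_U.slots (nat_lit 4383) (nat_lit 2220) = true := by decide +kernel

theorem f42_U_s3 : f42_U.slots (nat_lit 6603) (nat_lit 2273) = true := by decide +kernel

theorem f42_U_s4 : f42_U.slots (nat_lit 8876) (nat_lit 2269) = true := by decide +kernel

theorem f42_U_s5 : f42_U.slots (nat_lit 11145) (nat_lit 2313) = true := by decide +kernel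

theorem f42_U_s6 : f42_U.slots (nat_lit 13458) (nat_lit 2315) = true := by decide +kernel

theorem f42_U_s7 : f42_U.slots (nat_lit 15773) (nat_lit 2354) = true := by decide +kernel

theorem f42_U_s8 : f42_U.slots (nat_lit 18127) (nat_lit 2419) = true := by decide +kernel

theorem f42_U_s9 : f42_U.slots (nat_lit 20546) (nat_lit 2464) = true := by decide +kernel

end Cfsg.Agent.Spor.MX
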