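import Mathlib
import Cfsg.Agent.Spor.MX.F42D

/-! Generated by tools/mx: the chain S8(2) < F4(2) -/

set_option autoImplicit false
set_option maxRecDepth 100000
set_option linter.unusedVariables false
set_option exponentiation.threshold 100000

namespace Cfsg.Agent.Spor.MX

open Cfsg.Agent.Spor

universe u

theorem f42_U_s10 : f42_U.slots (nat_lit 23010) (nat_lit 2551) = true := by decide +kernel

theorem f42_U_s11 : f42_U.slots (nat_lit 25561) (nat_lit 2599) = true := by decide +kernel

theorem f42_U_s12 : f42_U.slots (nat_lit 28160) (nat_lit 2657) = true := by decide +kernel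

theorem f42_U_s13 : f42_U.slots (nat_lit 30817) (nat_lit 2706) = true := by decide +kernel

theorem f42_U_s14 : f42_U.slots (nat_lit 33523) (nat_lit 2762) = true := by decide +kernel

theorem f42_U_s15 : f42_U.slots (nat_lit 36285) (nat_lit 2807) = true := by decide +kernel

theorem f42_U_s16 : f42_U.slots (nat_lit 39092) (nat_lit 2824) = true := by decide +kernel

theorem f42_U_s17 : f42_U.slots (nat_lit 41916) (nat_lit 2871) = true := by decide +kernel

theorem f42_U_s18 : f42_U.slots (nat_lit 44787) (nat_lit 2757) = true := by decide +kernel

theorem f42_U_s19 : f42_U.slots (nat_lit 47544) (nat_lit 2591) = true := by decide +kernel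

end Cfsg.Agent.Spor.MX
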