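import Mathlib
import Cfsg.Agent.Spor.MX.F42D

/-! Generated by tools/mx: the chain S8(2) < F4(2) -/

set_option autoImplicit false
set_option maxRecDepth 100000
set_option linter.unusedVariables false
set_option exponentiation.threshold 100000

namespace Cfsg.Agent.Spor.MX

open Cfsg.Agent.Spor

universe u

theorem f42_U_s20 : f42_U.slots (nat_lit 50135) (nat_lit 2543) = true := by decide +kernel

theorem f42_U_s21 : f42_U.slots (nat_lit 52678) (nat_lit 2445) = true := by decide +kernel

theorem f42_U_s22 : f42_U.slots (nat_lit 55123) (nat_lit 2332) = true := by decide +kernel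

theorem f42_U_s23 : f42_U.slots (nat_lit 57455) (nat_lit 2241) = true := by decide +kernel

theorem f42_U_s24 : f42_U.slots (nat_lit 59696) (nat_lit 2176) = true := by decide +kernel

theorem f42_U_s25 : f42_U.slots (nat_lit 61872) (nat_lit 2088) = true := by decide +kernel

theorem f42_U_s26 : f42_U.slots (nat_lit 63960) (nat_lit 2048) = true := by decide +kernel

theorem f42_U_s27 : f42_U.slots (nat_lit 66008) (nat_lit 2007) = true := by decide +kernel

theorem f42_U_s28 : f42_U.slots (nat_lit 68015) (nat_lit 1873) = true := by decide +kernel

theorem f42_U_c6 : f42_U.rules.all (fun l => goodB (nat_lit 29) (nat_lit 41) f42_U.mH f42_rels (hdL l)) = true := by decide +kernel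

theorem f42_A4_ok : f42_A4.ok f42_C = true := by decide +kernel

theorem f42_A3_ok : f42_A3.ok f42_C = true := by decide +kernel

theorem f42_A5_ok : f42_A5.ok f42_C = true := by decide +kernel

theorem f42_A7_ok : f42_A7.ok f42_C = true := by decide +kernel

end Cfsg.Agent.Spor.MX
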