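import Mathlib
import Cfsg.Agent.Spor.MX.F42C0
import Cfsg.Agent.Spor.MX.F42C1
import Cfsg.Agent.Spor.MX.F42C2
import Cfsg.Agent.Spor.MX.S82Gen

/-! Generated by tools/mx: the chain S8(2) < F4(2) -/

set_option autoImplicit false
set_option maxRecDepth 100000
set_option linter.unusedVariables false
set_option exponentiation.threshold 100000

namespace Cfsg.Agent.Spor.MX

open Cfsg.Agent.Spor

universe u

theorem f42_up : f42_C.Upto f42_C.T.N := ((LC.upto_zero f42_C).step _ f42_s0)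

theorem f42_U_c4 : f42_U.Upto f42_U.N := ((((((((((((((((((((((((((((((TC.upto_zero f42_U).step _ f42_U_s0).step _ f42_U_s1).step _ f42_U_s2).step _ f42_U_s3).step _ f42_U_s4).step _ f42_U_s5).step _ f42_U_s6).step _ f42_U_s7).step _ f42_U_s8).step _ f42_U_s9).step _ f42_U_s10).step _ f42_U_s11).step _ f42_U_s12).step _ f42_U_s13).step _ f42_U_s14).step _ f42_U_s15).step _ f42_U_s16).step _ f42_U_s17).step _ f42_U_s18).step _ f42_U_s19).step _ f42_U_s20).step _ f42_U_s21).step _ f42_U_s22).step _ f42_U_s23).step _ f42_U_s24).step _ f42_U_s25).step _ f42_U_s26).step _ f42_U_s27).step _ f42_U_s28)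
theorem f42_U_c5 : f42_U.UptoE f42_U.N := (TC.uptoE_n f42_U)

theorem f42_idx : Idx.{u} f42_rels (nat_lit 29) (nat_lit 41) f42_inv (nat_lit 6) (nat_lit 7) (nat_lit 69888) :=
  idx_of_tc f42_U_c1 f42_U_c2 f42_U_c3 f42_U_c4 f42_U_c5 f42_U_c6

theorem f42_low {G : Type u} [Group G] {g : ℕ → G} (h : ∀ i, evalW g (f42_rels.get i) = 1) : ∀ i, evalW g (s8_rels.get i) = 1 :=
  rels_of_sub (by decide +kernel) h

theorem f42_bnd {G : Type u} [Group G] {g : ℕ → G} (h : ∀ i, evalW g (f42_rels.get i) = 1) : Bnd g 7 3311126603366400 :=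
  Bnd.step (C := f42_C) h (s8_bnd (f42_low h)) f42_b f42_idx

theorem f42_l4 {G : Type u} [Group G] {g : ℕ → G} (h : ∀ i, evalW g (f42_rels.get i) = 1) : Lifts 4 g 7 6622253206732800 :=
  Lifts.step (C := f42_C) (L := f42_A4) h (s8_l4 (f42_low h)) f42_b f42_up f42_A4_ok f42_idx (by decide +kernel)

theorem f42_l3 {G : Type u} [Group G] {g : ℕ → G} (h : ∀ i, evalW g (f42_rels.get i) = 1) : Lifts 3 g 7 3311126603366400 :=
  Lifts.step (C := f42_C) (L := f42_A3) h (s8_l3 (f42_low h)) f42_b f42_up f42_A3_ok f42_idx (by decide +kernel)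

theorem f42_l5 {G : Type u} [Group G] {g : ℕ → G} (h : ∀ i, evalW g (f42_rels.get i) = 1) : Lifts 5 g 7 3311126603366400 :=
  Lifts.step (C := f42_C) (L := f42_A5) h (s8_l5 (f42_low h)) f42_b f42_up f42_A5_ok f42_idx (by decide +kernel)

theorem f42_l7 {G : Type u} [Group G] {g : ℕ → G} (h : ∀ i, evalW g (f42_rels.get i) = 1) : Lifts 7 g 7 3311126603366400 :=
  Lifts.step (C := f42_C) (L := f42_A7) h (s8_l7 (f42_low h)) f42_b f42_up f42_A7_ok f42_idx (by decide +kernel)


end Cfsg.Agent.Spor.MX
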